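import Mathlib
import Cfsg.Agent.QS.KLa
import Cfsg.Agent.Cl.PSL34

/-! # S1817, piece QS-KLb: L3(q), involutions (proof in stubs/Cfsg/Agent/QS/KPLAN.md) -/

set_option autoImplicit false
set_option linter.unusedSectionVars false
set_option linter.unusedVariables false

namespace Cfsg.Agent.QS.K

open Cfsg Subgroup Cfsg.Agent.GT Cfsg.Agent.Inv Cfsg.Agent.Cmp Cfsg.Agent.QE Cfsg.Agent.QF
open scoped commutatorElement

variable {F : Type} [Field F] [Fintype F] [CharP F 2] {p : ℕ}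

theorem KLb_cen (x : U3.HQ F) : l3u F x ∈ C1 (l3u F ⟨0, 0, 1⟩) := by
  refine mem_C1.2 (Commute.map ?_ (l3u F))
  change x * ⟨0, 0, 1⟩ = ⟨0, 0, 1⟩ * x
  ext <;> simp [add_comm]

theorem KLb_ord : orderOf (l3u F ⟨0, 0, 1⟩) = 2 := by
  rw [orderOf_injective (l3u F) l3u_inj]
  refine orderOf_eq_prime ?_ ?_
  · rw [pow_two]
    ext <;> simp [CharTwo.add_self_eq_zero]
  · intro e
    simpa using congrArg U3.HQ.c e

theorem KLb_one (hp : p.Prime) (h3 : p ≠ 3) {k : Fˣ} (hk : orderOf k = p)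
    (ho : ¬ p ∣ Nat.card (Out (Matrix.ProjectiveSpecialLinearGroup (Fin 3) F))) :
    CTy p (l3u F ⟨0, 0, 1⟩) := by
  refine ⟨KLb_ord, fun f => ⟨_, l3_syl, ?_⟩⟩
  obtain ⟨t, ht, hc⟩ := l3_tor k (k⁻¹ * k⁻¹) k (by group)
  have kp : k ^ p = 1 := hk ▸ pow_orderOf_eq_one k
  have tp : t ^ p = 1 := ht p kp (by rw [mul_pow, inv_pow, kp, inv_one, mul_one])
  have hk0 : (k : F) ≠ 0 := k.ne_zero
  have hc' : ∀ x : U3.HQ F, t * l3u F x * t⁻¹ = l3u F ⟨(k : F) ^ 3 * x.a, ((k : F) ^ 3)⁻¹ * x.b, x.c⟩ := by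
    intro x
    rw [hc]
    congr 1
    ext <;> simp only [mul_inv_rev, inv_inv, Units.val_mul, Units.val_inv_eq_inv_val] <;> field_simp
  have tC : t ∈ C1 (l3u F ⟨0, 0, 1⟩) := by
    refine mem_C1.2 ?_
    have := hc' ⟨0, 0, 1⟩
    simp only [mul_zero] at this
    exact mul_inv_eq_iff_eq_mul.1 this
  have tf : f ⟨t, tC⟩ = 1 := by
    have h1 : orderOf (f ⟨t, tC⟩) ∣ p :=
      orderOf_dvd_of_pow_eq_one (by
        rw [← map_pow, show (⟨t, tC⟩ : C1 (l3u F ⟨0, 0, 1⟩)) ^ p = 1 from Subtype.ext tp, map_one])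
    rcases (Nat.dvd_prime hp).1 h1 with h2 | h2
    · exact orderOf_eq_one_iff.1 h2
    · exact absurd (h2 ▸ orderOf_dvd_natCard _) ho
  have tY : t ∈ Yk p f := mem_Yk tC tp tf
  have k3 : (k : F) ^ 3 ≠ 1 := by
    intro e
    have : k ^ 3 = 1 := Units.ext (by simpa using e)
    exact h3 ((Nat.prime_dvd_prime_iff_eq hp Nat.prime_three).1 (hk ▸ orderOf_dvd_of_pow_eq_one this))
  have k3' : (k : F) ^ 3 - 1 ≠ 0 := sub_ne_zero.2 k3
  have k3'' : ((k : F) ^ 3)⁻¹ - 1 ≠ 0 := sub_ne_zero.2 fun e => k3 (inv_eq_one.1 e)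
  have ha : ∀ a : F, l3u F ⟨a, 0, 0⟩ ∈ Yk p f := by
    intro a
    have := comm_Yk tY (KLb_cen ⟨a / ((k : F) ^ 3 - 1), 0, 0⟩)
    rw [hc', ← map_inv, ← map_mul] at this
    convert this using 2
    ext
    · simp only [U3.HQ.mul_a, U3.HQ.inv_a]
      field_simp
      ring
    · simp
    · simp
  have hb : ∀ b : F, l3u F ⟨0, b, 0⟩ ∈ Yk p f := by
    intro b
    have := comm_Yk tY (KLb_cen ⟨0, b / (((k : F) ^ 3)⁻¹ - 1), 0⟩)
    rw [hc', ← map_inv, ← map_mul] at this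
    convert this using 2
    generalize ((k : F) ^ 3)⁻¹ = m at k3''
    ext
    · simp
    · simp only [U3.HQ.mul_b, U3.HQ.inv_b]
      field_simp
      ring
    · simp
  have hz : ∀ c : F, l3u F ⟨0, 0, c⟩ ∈ Yk p f := by
    intro c
    have := comm_Yk (ha c) (KLb_cen ⟨0, 1, 0⟩)
    rw [← map_inv, ← map_inv, ← map_mul, ← map_mul, ← map_mul] at this
    convert this using 2
    ext <;> simp
  rintro _ ⟨x, rfl⟩
  have := mul_mem (mul_mem (ha x.a) (hb x.b)) (hz (x.c - x.a * x.b))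
  rw [← map_mul, ← map_mul] at this
  convert this using 2
  ext <;> simp

theorem l3_cty (hp : p.Prime) (h3 : p ≠ 3) {k : Fˣ} (hk : orderOf k = p)
    (ho : ¬ p ∣ Nat.card (Out (Matrix.ProjectiveSpecialLinearGroup (Fin 3) F))) (y : Matrix.ProjectiveSpecialLinearGroup (Fin 3) F) (hy : orderOf y = 2) :
    CTy p y := by
  obtain ⟨g, rfl⟩ := isConj_iff.1 (Cl.psl_three_isConj_of_invol (KLb_ord (F := F)) hy)
  exact (KLb_one hp h3 hk ho).conj g

end Cfsg.Agent.QS.K
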